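-- Relators of a group on two generators.
import Mathlib
set_option autoImplicit false

namespace Cfsg.Agent.Lib.Compute.TC.J1Rel

/-- the first generator -/
abbrev a : FreeGroup (Fin 2) := FreeGroup.of 0
/-- the second generator -/
abbrev b : FreeGroup (Fin 2) := FreeGroup.of 1

/-- the relators -/
def rsP : List (FreeGroup (Fin 2)) := [a ^ 2, b ^ 3, (a * b) ^ 7, (a * b * (a * b * a * b⁻¹) ^ 3) ^ 5, (a * b * (a * b * a * b⁻¹) ^ 6 * a * b * a * b * (a * b⁻¹) ^ 2) ^ 2]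

/-- the subgroup of the table -/
def hsA : List (FreeGroup (Fin 2)) := [b⁻¹ * a * b * a * b⁻¹ * a * b * a * b * a * b⁻¹ * a * b⁻¹ * b⁻¹ * a * b⁻¹ * a * b * a, a * b⁻¹ * a * b⁻¹ * a * b⁻¹ * b⁻¹ * a * b * a * b⁻¹ * a * b * b * a * b * a * b * a]

/-- the cyclic subgroup -/
def hsU : List (FreeGroup (Fin 2)) := [a * b]

end Cfsg.Agent.Lib.Compute.TC.J1Rel
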