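-- Relators of a group on two generators.
import Mathlib
set_option autoImplicit false

namespace Cfsg.Agent.Lib.Compute.TC.M11Rel

/-- the first generator -/
abbrev a : FreeGroup (Fin 2) := FreeGroup.of 0
/-- the second generator -/
abbrev b : FreeGroup (Fin 2) := FreeGroup.of 1

/-- the relators -/
def rsP : List (FreeGroup (Fin 2)) := [a ^ 2, b ^ 4, (a * b) ^ 11, (a * b ^ 2) ^ 6, a * b * a * b * a * b⁻¹ * a * b * a * b ^ 2 * a * b⁻¹ * a * b * a * b⁻¹ * a * b⁻¹]

/-- the subgroup of the table -/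
def hsA : List (FreeGroup (Fin 2)) := [a * b⁻¹ * a, b * a * b * b * a * b]

/-- the cyclic subgroup -/
def hsU : List (FreeGroup (Fin 2)) := [a * b]

end Cfsg.Agent.Lib.Compute.TC.M11Rel
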